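import Cfsg.Agent.Lib.Spec.GK
import Cfsg.Agent.Lib.Spec.TwoPrimes
import Cfsg.Agent.Lib.Core.MinNormal

/-!
# Groups with the order and the spectrum of an alternating group
-/

set_option autoImplicit false

namespace Cfsg.Lib.Spec

open Subgroup Cfsg.Lib.BG Cfsg.Lib.Core
open scoped Nat

variable {G : Type*} [Group G] [Finite G] {n p q : ℕ}

theorem add_le_of_mem_sp_alt (hp : p.Prime) (hq : q.Prime) (hpq : p ≠ q)
    (h : p * q ∈ sp (alternatingGroup (Fin n))) : p + q ≤ n := by
  obtain ⟨σ, hσ⟩ := sp_subgroup _ h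
  have key : ∀ r : ℕ, r.Prime → r ∣ p * q → ∃ a ∈ σ.cycleType, r ∣ a := fun r hr h => by
    rw [← hσ, ← Equiv.Perm.lcm_cycleType] at h
    generalize σ.cycleType = s at h
    induction s using Multiset.induction_on with
    | empty => exact (hr.one_lt.ne' (Nat.dvd_one.1 h)).elim
    | cons a s ih =>
      rw [Multiset.lcm_cons] at h
      rcases (hr.dvd_mul.1 (h.trans (lcm_dvd_mul _ _))) with h | h
      · exact ⟨a, Multiset.mem_cons_self _ _, h⟩
      · obtain ⟨b, hb, e⟩ := ih h
        exact ⟨b, Multiset.mem_cons_of_mem hb, e⟩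
  obtain ⟨a, ha, h1⟩ := key p hp (dvd_mul_right _ _)
  obtain ⟨b, hb, h2⟩ := key q hq (dvd_mul_left _ _)
  have h3 : σ.cycleType.sum ≤ n := by
    rw [Equiv.Perm.sum_cycleType]; simpa using Finset.card_le_univ σ.support
  have a0 := Equiv.Perm.two_le_of_mem_cycleType ha
  have b0 := Equiv.Perm.two_le_of_mem_cycleType hb
  by_cases e : a = b
  · subst e
    have h4 := Nat.le_of_dvd (by omega) (((Nat.coprime_primes hp hq).2 hpq).mul_dvd_of_dvd_of_dvd h1 h2)
    have h5 := Multiset.single_le_sum (fun _ _ => Nat.zero_le _) a ha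
    have := Nat.add_le_mul hp.two_le hq.two_le
    omega
  · obtain ⟨t, ht⟩ := Multiset.exists_cons_of_mem ha
    rw [ht, Multiset.mem_cons] at hb
    have h5 := Multiset.single_le_sum (fun _ _ => Nat.zero_le _) b (hb.resolve_left (Ne.symm e))
    rw [ht, Multiset.sum_cons] at h3
    have := Nat.le_of_dvd (by omega) h1
    have := Nat.le_of_dvd (by omega) h2
    omega

theorem card_alt_dvd : Nat.card (alternatingGroup (Fin n)) ∣ n ! := by
  have := card_subgroup_dvd_card (alternatingGroup (Fin n))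
  rwa [Nat.card_perm, Nat.card_fin] at this

theorem prime_dvd_card_alt (hp : p.Prime) (h2 : p ≠ 2) (h : p ≤ n) :
    p ∣ Nat.card (alternatingGroup (Fin n)) := by
  have : Nontrivial (Fin n) := Fin.nontrivial_iff_two_le.2 (hp.two_le.trans h)
  have h1 := two_mul_nat_card_alternatingGroup (α := Fin n)
  rw [Nat.card_perm, Nat.card_fin] at h1
  exact ((Nat.coprime_primes hp Nat.prime_two).2 h2).dvd_of_dvd_mul_left (h1 ▸ (hp.dvd_factorial).2 h)

theorem le_one_of_pow_dvd_factorial (hp : p.Prime) (h : n < 2 * p) {k : ℕ} (hk : p ^ k ∣ n !) :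
    k ≤ 1 := by
  have h2 := hp.two_le
  have h1 : Nat.log p n < 2 := Nat.log_lt_of_lt_pow' two_ne_zero (by nlinarith)
  rw [hp.pow_dvd_factorial_iff h1] at hk
  have : n / p < 2 := Nat.div_lt_of_lt_mul (by omega)
  simp at hk; omega

theorem not_dvd_of_big (hp : p.Prime) (hq : q.Prime) (h3 : 3 ≤ n) (h1 : n < 2 * p) (h2 : n < 2 * q)
    (hpn : p ≤ n) (hn : 4 ≤ n) {k : ℕ} (k0 : 0 < k) (hk : p ^ k ∣ n !) : ¬ q ∣ p ^ k - 1 := by
  obtain rfl : k = 1 := le_antisymm (le_one_of_pow_dvd_factorial hp h1 hk) k0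
  rintro ⟨c, hc⟩
  have := hp.two_le
  have h4 := hp.eq_two_or_odd
  have h5 := hq.eq_two_or_odd
  rw [pow_one] at hc
  obtain rfl | rfl | h : c = 0 ∨ c = 1 ∨ 2 ≤ c := by omega
  · omega
  · omega
  · have := Nat.mul_le_mul_left q h; omega

theorem isSimpleGroup_of_not_sq_dvd {M : Subgroup G} (hM : IsMinNormal M) (hp : p.Prime)
    (h1 : p ∣ Nat.card M) (h2 : ¬ p ^ 2 ∣ Nat.card M) : IsSimpleGroup M := by
  have : Fact p.Prime := ⟨hp⟩
  have := hM.normal
  have : Nontrivial M := (nontrivial_iff_ne_bot M).2 hM.ne_bot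
  refine ⟨fun L hL => ?_⟩
  by_cases h : p ∣ Nat.card L
  · have h3 : ¬ p ∣ L.index := fun e => h2 (by
      rw [← L.card_mul_index, pow_two]; exact mul_dvd_mul h e)
    let K : Subgroup M := closure {g | ∃ k, g ^ p ^ k = 1}
    have hK : K.Characteristic := characteristic_iff_map_le.2 fun f => by
      rw [MonoidHom.map_closure]
      refine closure_mono ?_
      rintro _ ⟨g, ⟨k, hk⟩, rfl⟩
      exact ⟨k, by rw [← map_pow, hk, map_one]⟩
    have KL : K ≤ L := (closure_le _).2 fun g ⟨k, hk⟩ => by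
      rw [SetLike.mem_coe, ← QuotientGroup.eq_one_iff, ← orderOf_eq_one_iff]
      exact Nat.eq_one_of_dvd_coprimes (((hp.coprime_iff_not_dvd).2 h3).pow_left k)
        (orderOf_dvd_of_pow_eq_one (by rw [← QuotientGroup.mk_pow, hk]; rfl)) (orderOf_dvd_natCard _)
    obtain ⟨g, hg⟩ := exists_prime_orderOf_dvd_card' (G := M) p h1
    have := hM.eq_of_le (K := K.map M.subtype) inferInstance (fun e => by
      have : g ∈ K := subset_closure ⟨1, by rw [pow_one, ← hg, pow_orderOf_eq_one]⟩
      rw [(map_eq_bot_iff_of_injective _ M.subtype_injective).1 e, mem_bot] at this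
      rw [this, orderOf_one] at hg
      exact hp.one_lt.ne hg) (map_subtype_le _)
    refine .inr (eq_top_iff.2 fun x _ => KL ?_)
    obtain ⟨y, hy, e⟩ := this.ge x.2
    rwa [← show y = x from Subtype.ext e]
  · refine .inl (by_contra fun h0 => ?_)
    have h3 : L ≤ pPrimeCore p M := le_pPrimeCore hL ((hp.coprime_iff_not_dvd).2 h).symm
    have := hM.eq_of_le (K := (pPrimeCore p M).map M.subtype) inferInstance (fun e => h0 (by
      rwa [(map_eq_bot_iff_of_injective _ M.subtype_injective).1 e, le_bot_iff] at h3)) (map_subtype_le _)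
    refine not_dvd_card_pPrimeCore p M ?_
    rwa [← card_map_of_injective M.subtype_injective, this]

theorem exists_simple_section (hn : 11 ≤ n) (hcard : Nat.card G = Nat.card (alternatingGroup (Fin n)))
    (hs : sp G = sp (alternatingGroup (Fin n))) :
    ∃ (N H : Subgroup G) (_ : N.Normal), H.Normal ∧ N < H ∧
      IsSimpleGroup (↥H ⧸ N.subgroupOf H) ∧ ¬ IsMulCommutative (↥H ⧸ N.subgroupOf H) ∧
      ∀ p : ℕ, p.Prime → n < 2 * p → p ≤ n → p ∣ Nat.card (↥H ⧸ N.subgroupOf H) := by
  obtain ⟨p, q, hp, hq, hpq, h1, h2⟩ := exists_two_primes hn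
  have : Fact p.Prime := ⟨hp⟩
  have dv : ∀ r : ℕ, r.Prime → n < 2 * r → r ≤ n → r ∣ Nat.card G := fun r hr h1 h2 =>
    hcard ▸ prime_dvd_card_alt hr (by omega) h2
  have key : ∀ (K : Subgroup G) [K.Normal] (r s : ℕ), r.Prime → s.Prime → r ≠ s → n < 2 * r → r ≤ n →
      n < 2 * s → s ≤ n → r ∣ Nat.card K → s ∣ Nat.card K := fun K _ r s hr hs' e r1 r2 s1 s2 h => by
    by_contra h'
    obtain ⟨k, k0, h3, h4⟩ := exists_dvd_pow_sub_one K hr hs' e h
      (dvd_index_of_not_dvd hs' (dv s hs' s1 s2) h') fun h => by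
        have := add_le_of_mem_sp_alt hr hs' e (hs ▸ h); omega
    exact not_dvd_of_big hr hs' (by omega) r1 s1 r2 (by omega) k0 (h3.trans (hcard ▸ card_alt_dvd)) h4
  set N := pPrimeCore p G
  have hN : ¬ p ∣ Nat.card N := not_dvd_card_pPrimeCore p G
  have : Nontrivial (G ⧸ N) := QuotientGroup.nontrivial_iff.2 fun e =>
    hN (by rw [e, card_top]; exact dv p hp h1 (by omega))
  obtain ⟨M, hM⟩ := exists_isMinNormal (G := G ⧸ N)
  have := hM.normal
  let H := M.comap (QuotientGroup.mk' N)
  let f : H →* M := (QuotientGroup.mk' N).subgroupComap M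
  have hf : Function.Surjective f :=
    MonoidHom.subgroupComap_surjective_of_surjective _ _ (QuotientGroup.mk'_surjective N)
  have hk : f.ker = N.subgroupOf H := by
    ext x
    rw [MonoidHom.mem_ker, Subtype.ext_iff, mem_subgroupOf]
    exact QuotientGroup.eq_one_iff _
  have e : H ⧸ N.subgroupOf H ≃* M :=
    (QuotientGroup.quotientMulEquivOfEq hk.symm).trans (QuotientGroup.quotientKerEquivOfSurjective f hf)
  have NH : N ≤ H := fun x hx => by
    rw [mem_comap, QuotientGroup.mk'_apply, (QuotientGroup.eq_one_iff x).2 hx]; exact one_mem M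
  have hc : Nat.card H = Nat.card M * Nat.card N := by
    rw [card_eq_card_quotient_mul_card_subgroup (N.subgroupOf H), Nat.card_congr e.toEquiv,
      Nat.card_congr (subgroupOfEquivOfLe NH).toEquiv]
  have hpM : p ∣ Nat.card M := by
    by_contra h
    exact hM.ne_bot (le_bot_iff.1 ((le_pPrimeCore hM.normal (coprime_iff_not_dvd.2 h)).trans
      (pPrimeCore_quotient_pPrimeCore p G).le))
  have all : ∀ r : ℕ, r.Prime → n < 2 * r → r ≤ n → r ∣ Nat.card M := fun r hr r1 r2 => by
    by_cases e : r = p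
    · exact e ▸ hpM
    have h3 := key H p r hp hr (Ne.symm e) h1 (by omega) r1 r2 (hc ▸ hpM.mul_right _)
    rw [hc] at h3
    exact (hr.dvd_mul.1 h3).resolve_right fun h => hN (key N r p hr hp e r1 r2 h1 (by omega) h)
  have hsim := isSimpleGroup_of_not_sq_dvd hM hp hpM fun h => by
    have := le_one_of_pow_dvd_factorial hp h1 (h.trans ((M.card_subgroup_dvd_card.trans
      (card_quotient_dvd_card N)).trans (hcard ▸ card_alt_dvd)))
    omega
  refine ⟨N, H, inferInstance, inferInstance, lt_of_le_of_ne NH fun e => hN ?_, e.isSimpleGroup,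
    fun h => ?_, fun r hr r1 r2 => Nat.card_congr e.toEquiv ▸ all r hr r1 r2⟩
  · rw [e, hc]; exact hpM.mul_right _
  · have : IsMulCommutative M := ⟨⟨fun a b => e.symm.injective (by
      rw [map_mul, map_mul]; exact h.1.1 _ _)⟩⟩
    let _ : CommGroup M := { (inferInstance : Group M) with mul_comm := this.1.1 }
    have h3 := IsSimpleGroup.prime_card (α := M)
    have h4 := (Nat.prime_dvd_prime_iff_eq hp h3).1 hpM
    have h5 := (Nat.prime_dvd_prime_iff_eq hq h3).1 (all q hq (by omega) h2)
    omega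

theorem not_solvable_of_alt (hn : 5 ≤ n) (hcard : Nat.card G = Nat.card (alternatingGroup (Fin n)))
    (hs : sp G = sp (alternatingGroup (Fin n))) : ¬ Group.IsSolvable G := by
  by_cases h11 : 11 ≤ n
  · obtain ⟨N, H, _, -, -, h1, h2, -⟩ := exists_simple_section h11 hcard hs
    exact fun h => h2 ⟨⟨IsSimpleGroup.comm_iff_isSolvable.2 inferInstance⟩⟩
  have hd : ∀ m, m ∣ Nat.card G → m ∣ n ! := fun m h => h.trans (hcard ▸ card_alt_dvd)
  have bd : ∀ {r k : ℕ} (b : ℕ), r ^ k ∣ Nat.card G → ¬ r ^ (b + 1) ∣ n ! → k ≤ b := fun b h h' => by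
    by_contra e
    exact h' ((pow_dvd_pow _ (by omega)).trans (hd _ h))
  by_cases h7 : 7 ≤ n
  · refine not_solvable_of_two_primes (p := 5) (q := 7) (by decide) (by decide) (by decide)
      (hcard ▸ prime_dvd_card_alt (by decide) (by decide) hn)
      (hcard ▸ prime_dvd_card_alt (by decide) (by decide) h7)
      (fun h => by have := add_le_of_mem_sp_alt (by decide) (by decide) (by decide) (hs ▸ h); omega)
      (fun k k0 h => ?_) fun k k0 h => ?_
    · have := bd 2 h (by interval_cases n <;> decide)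
      interval_cases k <;> decide
    · have := bd 1 h (by interval_cases n <;> decide)
      interval_cases k; decide
  · refine not_solvable_of_two_primes (p := 3) (q := 5) (by decide) (by decide) (by decide)
      (hcard ▸ prime_dvd_card_alt (by decide) (by decide) (by omega))
      (hcard ▸ prime_dvd_card_alt (by decide) (by decide) hn)
      (fun h => by have := add_le_of_mem_sp_alt (by decide) (by decide) (by decide) (hs ▸ h); omega)
      (fun k k0 h => ?_) fun k k0 h => ?_
    · have := bd 2 h (by interval_cases n <;> decide)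
      interval_cases k <;> decide
    · have := bd 1 h (by interval_cases n <;> decide)
      interval_cases k; decide

end Cfsg.Lib.Spec
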